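import Cfsg.Agent.Lib.Helper90.Sp.Defs
import Cfsg.Agent.Lib.Helper35.Asch.L6
import Cfsg.Agent.Lib.Helper55.Asch.FormCore

set_option autoImplicit false
set_option linter.unusedSectionVars false

/-! # Piece T0 of the symplectic Aschbacher campaign -/

namespace Cfsg.Agent.Lib.Helper12.Sp

open Cfsg Cfsg.Geo Matrix Cfsg.Agent.Lib.Helper13.Asch Cfsg.Agent.Lib.Helper90.Sp
open scoped Kronecker MatrixGroups

variable {ι : Type} [Fintype ι] [DecidableEq ι] {F : Type*} [Field F]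

lemma formOfGram_eq_gform {κ : Type} [Fintype κ] [DecidableEq κ] (G : Matrix κ κ F) (x y : κ → F) :
    formOfGram id G x y = gform (RingHom.id F) G x y := by
  simp only [formOfGram, gform, dotProduct, Matrix.mulVec, RingHom.id_apply, id, Finset.mul_sum,
    mul_assoc]

/-- reindexed matrices act on reindexed vectors -/
lemma reindex_mulVec_comp {κ : Type} [Fintype κ] [DecidableEq κ] (e : ι ≃ κ) (M : Matrix κ κ F)
    (x : κ → F) : Matrix.reindex e.symm e.symm M *ᵥ (x ∘ e) = (M *ᵥ x) ∘ e := by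
  ext i
  simp only [Matrix.mulVec, dotProduct, Matrix.reindex_apply, Matrix.submatrix_apply,
    Function.comp_apply, Equiv.symm_symm]
  exact Fintype.sum_equiv e _ _ (fun _ => rfl)

lemma embL_mulVec {a b : ℕ} (e : ι ≃ Fin a × Fin b) (P : GL ι F) (X : Matrix (Fin a) (Fin a) F)
    (x : Fin a × Fin b → F) :
    embL e P X *ᵥ ((P : Matrix ι ι F) *ᵥ (x ∘ e)) =
      (P : Matrix ι ι F) *ᵥ (((X ⊗ₖ (1 : Matrix (Fin b) (Fin b) F)) *ᵥ x) ∘ e) := by
  unfold embL
  rw [Matrix.mulVec_mulVec, mul_assoc, ← Units.val_mul, inv_mul_cancel, Units.val_one, mul_one,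
    ← Matrix.mulVec_mulVec, reindex_mulVec_comp]

/-- sign analysis of a skew Kronecker product -/
lemma kron_skew {a b : ℕ} (G₁ : Matrix (Fin a) (Fin a) F) (G₂ : Matrix (Fin b) (Fin b) F)
    (h1 : G₁ ≠ 0) (h2 : G₂ ≠ 0) (h : (G₁ ⊗ₖ G₂)ᵀ = -(G₁ ⊗ₖ G₂)) :
    (G₁ᵀ = -G₁ ∧ G₂ᵀ = G₂) ∨ (G₁ᵀ = G₁ ∧ G₂ᵀ = -G₂) := by
  have key : ∀ i j k l, G₁ j i * G₂ l k = -(G₁ i j * G₂ k l) := by
    intro i j k l
    have := congrFun (congrFun h (i, k)) (j, l)
    simpa [Matrix.kroneckerMap_apply] using this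
  obtain ⟨i, j, hij⟩ : ∃ i j, G₁ i j ≠ 0 := by
    by_contra hcon
    push Not at hcon
    exact h1 (by ext i j; exact hcon i j)
  obtain ⟨k, l, hkl⟩ : ∃ k l, G₂ k l ≠ 0 := by
    by_contra hcon
    push Not at hcon
    exact h2 (by ext i j; exact hcon i j)
  have hne : G₁ j i * G₂ l k ≠ 0 := by
    rw [key]; exact neg_ne_zero.2 (mul_ne_zero hij hkl)
  have hlk : G₂ l k ≠ 0 := right_ne_zero_of_mul hne
  set γ : F := -G₂ k l / G₂ l k with hγ
  have hG1 : ∀ i' j', G₁ j' i' = γ * G₁ i' j' := by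
    intro i' j'
    have := key i' j' k l
    rw [hγ]
    field_simp
    linear_combination this
  have hγ2 : γ * γ = 1 := by
    have e1 := hG1 i j
    have e2 := hG1 j i
    rw [e1] at e2
    have : (γ * γ - 1) * G₁ i j = 0 := by linear_combination -e2
    rcases mul_eq_zero.1 this with h | h
    · linear_combination h
    · exact absurd h hij
  have hγ' : γ = 1 ∨ γ = -1 := by
    have : (γ - 1) * (γ + 1) = 0 := by linear_combination hγ2
    rcases mul_eq_zero.1 this with h | h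
    · left; linear_combination h
    · right; linear_combination h
  rcases hγ' with hg | hg
  · right
    constructor
    · ext i' j'
      rw [Matrix.transpose_apply, hG1 i' j', hg, one_mul]
    · ext k' l'
      rw [Matrix.transpose_apply, Matrix.neg_apply]
      have e1 := key i j k' l'
      rw [hG1 i j, hg, one_mul] at e1
      have : G₁ i j * (G₂ l' k' + G₂ k' l') = 0 := by linear_combination e1
      rcases mul_eq_zero.1 this with h | h
      · exact absurd h hij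
      · linear_combination h
  · left
    constructor
    · ext i' j'
      rw [Matrix.transpose_apply, Matrix.neg_apply, hG1 i' j', hg]; ring
    · ext k' l'
      rw [Matrix.transpose_apply]
      have e1 := key i j k' l'
      rw [hG1 i j, hg] at e1
      have : G₁ i j * (G₂ l' k' - G₂ k' l') = 0 := by linear_combination -e1
      rcases mul_eq_zero.1 this with h | h
      · exact absurd h hij
      · linear_combination h

/-- T0 -/
theorem tensGram_of_adj [Nonempty ι] {f : (ι → F) → (ι → F) → F} (hf : IsSymplecticForm f)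
    {a b : ℕ} (e : ι ≃ Fin a × Fin b) (P : GL ι F)
    (hadj : ∀ X : Matrix (Fin a) (Fin a) F, ∃ Y : Matrix (Fin a) (Fin a) F,
      ∀ u v, f (embL e P X *ᵥ u) v = f u (embL e P Y *ᵥ v)) :
    ∃ (G₁ : Matrix (Fin a) (Fin a) F) (G₂ : Matrix (Fin b) (Fin b) F), TensGram f e P G₁ G₂ ∧
      IsUnit G₁.det ∧ IsUnit G₂.det ∧
      ((G₁ᵀ = -G₁ ∧ G₂ᵀ = G₂) ∨ (G₁ᵀ = G₁ ∧ G₂ᵀ = -G₂)) := by
  classical
  obtain ⟨i₀⟩ := ‹Nonempty ι›
  have i0 : Fin a := (e i₀).1
  have k0 : Fin b := (e i₀).2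
  set T : (Fin a × Fin b → F) → (ι → F) := fun x => (P : Matrix ι ι F) *ᵥ (x ∘ e) with hT
  have Tadd : ∀ x y, T (x + y) = T x + T y := by
    intro x y
    simp only [hT]
    rw [← Matrix.mulVec_add]; rfl
  have Tsmul : ∀ (c : F) x, T (c • x) = c • T x := by
    intro c x
    simp only [hT]
    rw [← Matrix.mulVec_smul]; rfl
  have Tinj : ∀ x, x ≠ 0 → T x ≠ 0 := by
    intro x hx h0
    apply hx
    have h1 : ((P⁻¹ : GL ι F) : Matrix ι ι F) *ᵥ T x = x ∘ e := by
      simp only [hT]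
      rw [Matrix.mulVec_mulVec, ← Units.val_mul, inv_mul_cancel, Units.val_one, Matrix.one_mulVec]
    rw [h0, Matrix.mulVec_zero] at h1
    ext k
    have := congrFun h1 (e.symm k)
    simpa using this.symm
  have Tsurj : ∀ u, ∃ x, T x = u := by
    intro u
    refine ⟨(((P⁻¹ : GL ι F) : Matrix ι ι F) *ᵥ u) ∘ e.symm, ?_⟩
    simp only [hT]
    have : ((((P⁻¹ : GL ι F) : Matrix ι ι F) *ᵥ u) ∘ e.symm) ∘ e
        = ((P⁻¹ : GL ι F) : Matrix ι ι F) *ᵥ u := by
      ext i; simp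
    rw [this, Matrix.mulVec_mulVec, ← Units.val_mul, mul_inv_cancel, Units.val_one,
      Matrix.one_mulVec]
  set f' : (Fin a × Fin b → F) → (Fin a × Fin b → F) → F := fun x y => f (T x) (T y) with hf'
  set G := Cfsg.Agent.Lib.Helper55.Asch.gram f' with hG
  have hfG : ∀ x y, f' x y = gform (RingHom.id F) G x y := by
    apply Cfsg.Agent.Lib.Helper55.Asch.eq_gform (RingHom.id F) f'
    · intro x y v; simp only [hf']; rw [Tadd, hf.bilinear.add_left]
    · intro c x v; simp only [hf']; rw [Tsmul, hf.bilinear.smul_left]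
    · intro v x y; simp only [hf']; rw [Tadd, hf.bilinear.add_right]
    · intro c v x; simp only [hf']; rw [Tsmul, hf.bilinear.smul_right]; rfl
  have hGdet : IsUnit G.det := by
    apply Cfsg.Agent.Lib.Helper55.Asch.isUnit_det_of_nondeg (RingEquiv.refl F) G
    intro v hv
    obtain ⟨u, hu⟩ := (hf.nondegenerate _ (Tinj v hv)).1
    obtain ⟨x, rfl⟩ := Tsurj u
    refine ⟨x, ?_⟩
    have := hfG x v
    intro h0
    apply hu
    rw [← h0]
    exact this
  have hGT : Gᵀ = -G := by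
    ext p q
    simp only [hG, Cfsg.Agent.Lib.Helper55.Asch.gram, Matrix.transpose_apply, Matrix.of_apply,
      Matrix.neg_apply, hf']
    exact hf.skew _ _
  have hgl : ∀ (M : Matrix (Fin a × Fin b) (Fin a × Fin b) F) x y,
      gform (RingHom.id F) G (M *ᵥ x) y = gform (RingHom.id F) (Mᵀ * G) x y := by
    intro M x y
    simp only [gform]
    rw [← Matrix.mulVec_mulVec, Matrix.dotProduct_mulVec x Mᵀ, Matrix.vecMul_transpose]
  have hgr : ∀ (M : Matrix (Fin a × Fin b) (Fin a × Fin b) F) x y,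
      gform (RingHom.id F) G x (M *ᵥ y) = gform (RingHom.id F) (G * M) x y := by
    intro M x y
    simp only [gform, RingHom.id_apply]
    rw [← Matrix.mulVec_mulVec]
  have hXY : ∀ X : Matrix (Fin a) (Fin a) F, ∃ Y : Matrix (Fin a) (Fin a) F,
      (X ⊗ₖ (1 : Matrix (Fin b) (Fin b) F))ᵀ * G = G * (Y ⊗ₖ (1 : Matrix (Fin b) (Fin b) F)) := by
    intro X
    obtain ⟨Y, hY⟩ := hadj X
    refine ⟨Y, Cfsg.Agent.Lib.Helper55.Asch.gform_ext (RingHom.id F) ?_⟩
    intro x y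
    rw [← hgl, ← hgr, ← hfG, ← hfG]
    have := hY (T x) (T y)
    simp only [hT] at this
    rw [embL_mulVec, embL_mulVec] at this
    exact this
  have hi1 : G⁻¹ * G = 1 := Matrix.nonsing_inv_mul _ hGdet
  have hi2 : G * G⁻¹ = 1 := Matrix.mul_nonsing_inv _ hGdet
  obtain ⟨g, c, hgc⟩ := Cfsg.Agent.Lib.Helper35.Asch.core i0 k0 G⁻¹ G hi1 hi2 (by
    intro X
    obtain ⟨Y, hY⟩ := hXY Xᵀ
    refine ⟨Y, ?_⟩
    have h1 : (Xᵀ ⊗ₖ (1 : Matrix (Fin b) (Fin b) F))ᵀ = X ⊗ₖ (1 : Matrix (Fin b) (Fin b) F) := by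
      ext ⟨i, k⟩ ⟨j, l⟩
      simp [Matrix.kroneckerMap_apply, Matrix.one_apply, eq_comm]
    rw [h1] at hY
    rw [mul_assoc, hY, ← mul_assoc, hi1, one_mul])
  have hGeq : G = ((g⁻¹ : GL _ F) : Matrix _ _ F) ⊗ₖ ((c⁻¹ : GL _ F) : Matrix _ _ F) := by
    have h1 : G⁻¹ * (((g⁻¹ : GL _ F) : Matrix _ _ F) ⊗ₖ ((c⁻¹ : GL _ F) : Matrix _ _ F)) = 1 := by
      rw [hgc, ← Matrix.mul_kronecker_mul, ← Units.val_mul, ← Units.val_mul, mul_inv_cancel,
        mul_inv_cancel, Units.val_one, Units.val_one, Matrix.one_kronecker_one]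
    calc G = G * (G⁻¹ * (((g⁻¹ : GL _ F) : Matrix _ _ F) ⊗ₖ ((c⁻¹ : GL _ F) : Matrix _ _ F))) := by
          rw [h1, mul_one]
      _ = _ := by rw [← mul_assoc, hi2, one_mul]
  have hd1 : IsUnit (((g⁻¹ : GL (Fin a) F) : Matrix (Fin a) (Fin a) F)).det := by
    rw [← Matrix.isUnit_iff_isUnit_det]; exact Units.isUnit _
  have hd2 : IsUnit (((c⁻¹ : GL (Fin b) F) : Matrix (Fin b) (Fin b) F)).det := by
    rw [← Matrix.isUnit_iff_isUnit_det]; exact Units.isUnit _
  refine ⟨((g⁻¹ : GL _ F) : Matrix _ _ F), ((c⁻¹ : GL _ F) : Matrix _ _ F), ?_, hd1, hd2, ?_⟩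
  · intro x y
    rw [formOfGram_eq_gform, ← hGeq, ← hfG]
  · apply kron_skew
    · intro h0
      rw [h0] at hd1
      have : Nonempty (Fin a) := ⟨i0⟩
      rw [Matrix.det_zero] at hd1
      exact not_isUnit_zero hd1
    · intro h0
      rw [h0] at hd2
      have : Nonempty (Fin b) := ⟨k0⟩
      rw [Matrix.det_zero] at hd2
      exact not_isUnit_zero hd2
    · rw [← hGeq]; exact hGT

end Cfsg.Agent.Lib.Helper12.Sp
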