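import Cfsg.Agent.Lib.Helper12.Sp.SCb

set_option autoImplicit false
set_option linter.unusedSectionVars false

/-! # Piece SCa of the symplectic Aschbacher campaign -/

namespace Cfsg.Agent.Lib.Helper12.Sp

open Cfsg Cfsg.Geo Matrix Cfsg.Agent.Lib.Helper13.Asch Cfsg.Agent.Lib.Helper90.Sp
open scoped Kronecker MatrixGroups

variable {ι : Type} [Fintype ι] [DecidableEq ι] {F : Type*} [Field F]

lemma rank_conj (h : GL ι F) (x : Matrix ι ι F) :
    ((h : Matrix ι ι F) * x * ((h⁻¹ : GL ι F) : Matrix ι ι F)).rank = x.rank := by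
  have h1 : IsUnit (h : Matrix ι ι F).det := by
    rw [← Matrix.isUnit_iff_isUnit_det]; exact Units.isUnit _
  have h2 : IsUnit ((h⁻¹ : GL ι F) : Matrix ι ι F).det := by
    rw [← Matrix.isUnit_iff_isUnit_det]; exact Units.isUnit _
  rw [Matrix.rank_mul_eq_left_of_isUnit_det _ _ h2, Matrix.rank_mul_eq_right_of_isUnit_det _ _ h1]

/-- SCa -/
theorem sp_of_selfadjoint_idempotents {f : (ι → F) → (ι → F) → F}
    (hf : IsSymplecticForm f) {H : Subgroup (GL ι F)} (hH : FixesForm (matrixSet H) f)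
    (hirr : ActsIrreducibly (matrixSet H)) {t : ℕ} (ht : 2 ≤ t) (e : Fin t → Matrix ι ι F)
    (hinj : Function.Injective e) (hidem : ∀ i, e i * e i = e i) (hne : ∀ i, e i ≠ 0)
    (horth : ∀ i j, i ≠ j → e i * e j = 0) (hsum : ∑ i, e i = 1)
    (hperm : ∀ h ∈ H, ∀ i, ∃ j,
      (h : Matrix ι ι F) * e i * ((h⁻¹ : GL ι F) : Matrix ι ι F) = e j)
    (hsa : ∀ i u v, f (e i *ᵥ u) v = f u (e i *ᵥ v)) :
    ∃ (k : ℕ) (D : Fin t → Submodule F (ι → F)), IsNondegenerateMDecomposition f k D ∧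
      H ≤ decompositionStabilizer D ∧ ∀ i, D i = LinearMap.range (Matrix.toLin' (e i)) := by
  classical
  set D : Fin t → Submodule F (ι → F) := fun i => LinearMap.range (Matrix.toLin' (e i)) with hD
  have hmem : ∀ i v, v ∈ D i ↔ e i *ᵥ v = v := by
    intro i v
    constructor
    · rintro ⟨w, rfl⟩
      rw [Matrix.toLin'_apply, Matrix.mulVec_mulVec, hidem]
    · intro h
      exact ⟨v, by rw [Matrix.toLin'_apply, h]⟩
  have hmem' : ∀ i v, e i *ᵥ v ∈ D i := fun i v => ⟨v, by rw [Matrix.toLin'_apply]⟩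
  have fzr : ∀ u : ι → F, f u 0 = 0 := by
    intro u
    have := hf.bilinear.smul_right 0 u 0
    simpa using this
  have hDne : ∀ i, D i ≠ ⊥ := by
    intro i h0
    apply hne i
    ext a b
    have h1 : e i *ᵥ (Pi.single b 1) ∈ D i := hmem' i _
    rw [h0, Submodule.mem_bot] at h1
    have := congrFun h1 a
    simpa using this
  have hindep : iSupIndep D := by
    intro i
    rw [Submodule.disjoint_def]
    intro v hv hv'
    have hle : (⨆ j, ⨆ (_ : j ≠ i), D j) ≤ LinearMap.ker (Matrix.toLin' (e i)) := by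
      refine iSup_le fun j => iSup_le fun hj => ?_
      rintro _ ⟨w, rfl⟩
      rw [LinearMap.mem_ker, Matrix.toLin'_apply, Matrix.toLin'_apply, Matrix.mulVec_mulVec,
        horth i j (Ne.symm hj), Matrix.zero_mulVec]
    have h1 := hle hv'
    rw [LinearMap.mem_ker, Matrix.toLin'_apply, (hmem i v).1 hv] at h1
    exact h1
  have htop : iSup D = ⊤ := by
    rw [eq_top_iff]
    intro v _
    have : v = ∑ i, e i *ᵥ v := by
      rw [← Matrix.sum_mulVec, hsum, Matrix.one_mulVec]
    rw [this]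
    exact Submodule.sum_mem _ fun i _ => (le_iSup D i) (hmem' i v)
  -- the permutation attached to `h`
  have hσ : ∀ h ∈ H, ∃ σ : Equiv.Perm (Fin t), ∀ i,
      (h : Matrix ι ι F) * e i * ((h⁻¹ : GL ι F) : Matrix ι ι F) = e (σ i) := by
    intro h hh
    choose s hs using hperm h hh
    have hsinj : Function.Injective s := by
      intro i i' hii
      apply hinj
      have h1 : (h : Matrix ι ι F) * e i * ((h⁻¹ : GL ι F) : Matrix ι ι F) =
          (h : Matrix ι ι F) * e i' * ((h⁻¹ : GL ι F) : Matrix ι ι F) := by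
        rw [hs, hs, hii]
      have h2 : ∀ x : Matrix ι ι F, ((h⁻¹ : GL ι F) : Matrix ι ι F) *
          ((h : Matrix ι ι F) * x * ((h⁻¹ : GL ι F) : Matrix ι ι F)) * (h : Matrix ι ι F) = x := by
        intro x
        calc ((h⁻¹ : GL ι F) : Matrix ι ι F) *
          ((h : Matrix ι ι F) * x * ((h⁻¹ : GL ι F) : Matrix ι ι F)) * (h : Matrix ι ι F)
            = (((h⁻¹ : GL ι F) : Matrix ι ι F) * (h : Matrix ι ι F)) * x *
              (((h⁻¹ : GL ι F) : Matrix ι ι F) * (h : Matrix ι ι F)) := by simp only [mul_assoc]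
          _ = x := by rw [← Units.val_mul, inv_mul_cancel, Units.val_one, one_mul, mul_one]
      rw [← h2 (e i), h1, h2]
    exact ⟨Equiv.ofBijective s (Finite.injective_iff_bijective.1 hsinj), hs⟩
  have hstab : H ≤ decompositionStabilizer D := by
    intro h hh
    obtain ⟨σ, hσ'⟩ := hσ h hh
    refine ⟨σ, fun i => ?_⟩
    simp only [hD]
    rw [map_range_conj, hσ']
  -- transitivity
  set i0 : Fin t := ⟨0, by omega⟩ with hi0
  set O : Set (Fin t) :=
    {j | ∃ h ∈ H, (h : Matrix ι ι F) * e i0 * ((h⁻¹ : GL ι F) : Matrix ι ι F) = e j} with hO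
  have hi0O : i0 ∈ O := ⟨1, H.one_mem, by simp⟩
  set W : Submodule F (ι → F) := ⨆ j, ⨆ (_ : j ∈ O), D j with hW
  have hWinv : ∀ s ∈ matrixSet H, W.map (Matrix.toLin' s) ≤ W := by
    rintro _ ⟨h, hh, rfl⟩
    obtain ⟨σ, hσ'⟩ := hσ h hh
    rw [hW, Submodule.map_iSup]
    refine iSup_le fun j => ?_
    rw [Submodule.map_iSup]
    refine iSup_le fun hj => ?_
    have h1 : (D j).map (Matrix.toLin' (h : Matrix ι ι F)) = D (σ j) := by
      simp only [hD]
      rw [map_range_conj, hσ']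
    rw [h1]
    have h2 : σ j ∈ O := by
      obtain ⟨g, hg, hgj⟩ := hj
      refine ⟨h * g, H.mul_mem hh hg, ?_⟩
      rw [← hσ', ← hgj, _root_.mul_inv_rev, Units.val_mul, Units.val_mul]
      simp only [mul_assoc]
    exact le_iSup₂_of_le (σ j) h2 le_rfl
  have hWtop : W = ⊤ := by
    rcases hirr W hWinv with h | h
    · exfalso
      apply hDne i0
      rw [eq_bot_iff, ← h]
      exact le_iSup₂_of_le i0 hi0O le_rfl
    · exact h
  have hall : ∀ i, i ∈ O := by
    intro i
    by_contra hi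
    apply hDne i
    have h1 : W ≤ ⨆ j, ⨆ (_ : j ≠ i), D j := by
      refine iSup_le fun j => iSup_le fun hj => ?_
      have : j ≠ i := by
        intro h; rw [h] at hj; exact hi hj
      exact le_iSup₂_of_le j this le_rfl
    have h2 := hindep i
    rw [eq_bot_iff]
    have h3 : D i ≤ ⨆ j, ⨆ (_ : j ≠ i), D j := by
      refine le_trans ?_ h1
      rw [hWtop]; exact le_top
    exact h2 le_rfl h3
  have hrank : ∀ i, Module.finrank F (D i) = (e i0).rank := by
    intro i
    obtain ⟨h, -, hh⟩ := hall i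
    change Module.finrank F (LinearMap.range (Matrix.toLin' (e i))) = _
    rw [finrank_range_toLin', ← hh, rank_conj]
  have hpos : 0 < (e i0).rank := by
    rw [Nat.pos_iff_ne_zero]
    intro h0
    apply hDne i0
    rw [← Submodule.finrank_eq_zero, hrank, h0]
  refine ⟨(e i0).rank, D, ⟨⟨ht, hpos, hrank, hindep, htop⟩, ?_, ?_⟩, hstab, fun i => rfl⟩
  · intro i w hw hw0
    have hw' := (hmem i w).1 hw
    constructor
    · obtain ⟨x, hx⟩ := (hf.nondegenerate w hw0).1
      refine ⟨e i *ᵥ x, hmem' i x, ?_⟩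
      rw [hsa, hw']; exact hx
    · obtain ⟨x, hx⟩ := (hf.nondegenerate w hw0).2
      refine ⟨e i *ᵥ x, hmem' i x, ?_⟩
      rw [← hsa, hw']; exact hx
  · intro i j hij
    rintro _ ⟨a, rfl⟩ _ ⟨b, rfl⟩
    rw [Matrix.toLin'_apply, Matrix.toLin'_apply, hsa, Matrix.mulVec_mulVec, horth i j hij,
      Matrix.zero_mulVec, fzr]

end Cfsg.Agent.Lib.Helper12.Sp
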