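import Cfsg.Agent.Lib.Helper90.Sp.Defs
import Cfsg.Agent.Lib.Helper55.Asch.FormCore
import Cfsg.Agent.Lib.Helper1.Sp.Z0

set_option autoImplicit false
set_option linter.unusedSectionVars false

/-! # Piece SCb of the symplectic Aschbacher campaign -/

namespace Cfsg.Agent.Lib.Helper12.Sp

open Cfsg Cfsg.Geo Matrix Cfsg.Agent.Lib.Helper13.Asch Cfsg.Agent.Lib.Helper90.Sp
open scoped Kronecker MatrixGroups

variable {ι : Type} [Fintype ι] [DecidableEq ι] {F : Type*} [Field F]

/-- the image of a range under an invertible matrix -/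
lemma map_range_conj (h : GL ι F) (x : Matrix ι ι F) :
    (LinearMap.range (Matrix.toLin' x)).map (Matrix.toLin' (h : Matrix ι ι F)) =
      LinearMap.range (Matrix.toLin' ((h : Matrix ι ι F) * x * ((h⁻¹ : GL ι F) : Matrix ι ι F))) := by
  ext v
  simp only [Submodule.mem_map, LinearMap.mem_range, Matrix.toLin'_apply]
  constructor
  · rintro ⟨_, ⟨w, rfl⟩, rfl⟩
    refine ⟨(h : Matrix ι ι F) *ᵥ w, ?_⟩
    rw [Matrix.mulVec_mulVec, mul_assoc, ← Units.val_mul, inv_mul_cancel, Units.val_one, mul_one,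
      Matrix.mulVec_mulVec]
  · rintro ⟨w, rfl⟩
    refine ⟨x *ᵥ (((h⁻¹ : GL ι F) : Matrix ι ι F) *ᵥ w), ⟨_, rfl⟩, ?_⟩
    rw [Matrix.mulVec_mulVec, Matrix.mulVec_mulVec, mul_assoc]

/-- adjoint matrices have the same rank -/
lemma rank_eq_of_adj {f : (ι → F) → (ι → F) → F} (hf : IsSymplecticForm f) {x y : Matrix ι ι F}
    (hadj : ∀ u v, f (x *ᵥ u) v = f u (y *ᵥ v)) : y.rank = x.rank := by
  set G := Cfsg.Agent.Lib.Helper55.Asch.gram f with hG
  have hfG : ∀ u v, f u v = gform (RingHom.id F) G u v :=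
    Cfsg.Agent.Lib.Helper55.Asch.eq_gform (RingHom.id F) f hf.bilinear.add_left
      hf.bilinear.smul_left hf.bilinear.add_right hf.bilinear.smul_right
  have hGdet : IsUnit G.det := by
    apply Cfsg.Agent.Lib.Helper55.Asch.isUnit_det_of_nondeg (RingEquiv.refl F) G
    intro v hv
    obtain ⟨u, hu⟩ := (hf.nondegenerate _ hv).1
    refine ⟨u, ?_⟩
    intro h0
    apply hu
    rw [← h0]
    exact hfG u v
  have hgl : ∀ (M : Matrix ι ι F) u v,
      gform (RingHom.id F) G (M *ᵥ u) v = gform (RingHom.id F) (Mᵀ * G) u v := by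
    intro M u v
    simp only [gform]
    rw [← Matrix.mulVec_mulVec, Matrix.dotProduct_mulVec u Mᵀ, Matrix.vecMul_transpose]
  have hgr : ∀ (M : Matrix ι ι F) u v,
      gform (RingHom.id F) G u (M *ᵥ v) = gform (RingHom.id F) (G * M) u v := by
    intro M u v
    simp only [gform, RingHom.id_apply]
    rw [← Matrix.mulVec_mulVec]
  have hxy : xᵀ * G = G * y := by
    apply Cfsg.Agent.Lib.Helper55.Asch.gform_ext (RingHom.id F)
    intro u v
    rw [← hgl, ← hgr, ← hfG, ← hfG, hadj]
  rw [← Matrix.rank_mul_eq_right_of_isUnit_det G y hGdet, ← hxy,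
    Matrix.rank_mul_eq_left_of_isUnit_det G _ hGdet, Matrix.rank_transpose]

lemma finrank_range_toLin' (x : Matrix ι ι F) :
    Module.finrank F (LinearMap.range (Matrix.toLin' x)) = x.rank := by
  rw [Matrix.rank, Matrix.toLin'_apply']

/-- SCb -/
theorem sp_of_isotropic_idempotent [Fintype F] [Nonempty ι] {f : (ι → F) → (ι → F) → F}
    (hf : IsSymplecticForm f) {H : Subgroup (GL ι F)} (hH : FixesForm (matrixSet H) f)
    (e : Matrix ι ι F) (hidem : e * e = e)
    (hadj : ∀ u v, f (e *ᵥ u) v = f u ((1 - e) *ᵥ v))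
    (hperm : ∀ h ∈ H, (h : Matrix ι ι F) * e * ((h⁻¹ : GL ι F) : Matrix ι ι F) = e ∨
      (h : Matrix ι ι F) * e * ((h⁻¹ : GL ι F) : Matrix ι ι F) = 1 - e) : SpCls f H := by
  classical
  set e' : Matrix ι ι F := 1 - e with he'
  have hee' : e * e' = 0 := by rw [he', mul_sub, mul_one, hidem, sub_self]
  have he'e : e' * e = 0 := by rw [he', sub_mul, one_mul, hidem, sub_self]
  have hsum : e + e' = 1 := by rw [he']; abel
  have hadj' : ∀ u v, f (e' *ᵥ u) v = f u (e *ᵥ v) := by
    intro u v
    rw [hf.skew, ← hadj, hf.skew, neg_neg]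
  have hsplit : ∀ v : ι → F, e *ᵥ v + e' *ᵥ v = v := by
    intro v
    rw [← Matrix.add_mulVec, hsum, Matrix.one_mulVec]
  have fzr : ∀ u : ι → F, f u 0 = 0 := by
    intro u
    have := hf.bilinear.smul_right 0 u 0
    simpa using this
  by_cases hodd : Odd (Fintype.card F)
  · -- alternative 4
    set D : Fin 2 → Submodule F (ι → F) :=
      ![LinearMap.range (Matrix.toLin' e), LinearMap.range (Matrix.toLin' e')] with hD
    have hD0 : D 0 = LinearMap.range (Matrix.toLin' e) := rfl
    have hD1 : D 1 = LinearMap.range (Matrix.toLin' e') := rfl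
    have hrank : e'.rank = e.rank := rank_eq_of_adj hf hadj
    have htop : iSup D = ⊤ := by
      rw [eq_top_iff]
      intro v _
      rw [← hsplit v]
      apply Submodule.add_mem
      · exact (le_iSup D 0) (by rw [hD0]; exact ⟨v, by simp⟩)
      · exact (le_iSup D 1) (by rw [hD1]; exact ⟨v, by simp⟩)
    have hdisj : Disjoint (D 0) (D 1) := by
      rw [Submodule.disjoint_def]
      intro v h0 h1
      rw [hD0] at h0
      rw [hD1] at h1
      obtain ⟨a, rfl⟩ := h0
      obtain ⟨b, hb⟩ := h1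
      simp only [Matrix.toLin'_apply] at hb ⊢
      calc e *ᵥ a = e *ᵥ (e *ᵥ a) := by rw [Matrix.mulVec_mulVec, hidem]
        _ = e *ᵥ (e' *ᵥ b) := by rw [hb]
        _ = 0 := by rw [Matrix.mulVec_mulVec, hee', Matrix.zero_mulVec]
    have hpos : 0 < e.rank := by
      rw [Nat.pos_iff_ne_zero]
      intro h0
      have h1 : D 0 = ⊥ := by
        rw [← Submodule.finrank_eq_zero, hD0, finrank_range_toLin', h0]
      have h2 : D 1 = ⊥ := by
        rw [← Submodule.finrank_eq_zero, hD1, finrank_range_toLin', hrank, h0]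
      have h3 : iSup D = ⊥ := by
        rw [iSup_eq_bot]
        intro i
        fin_cases i
        · exact h1
        · exact h2
      rw [htop] at h3
      exact top_ne_bot h3
    right; right; right; left
    refine ⟨e.rank, D, hodd, ⟨le_refl _, hpos, ?_, ?_, htop⟩, ?_, ?_⟩
    · intro i
      fin_cases i
      · exact finrank_range_toLin' e
      · exact (finrank_range_toLin' e').trans hrank
    · rw [iSupIndep_pair (i := (0 : Fin 2)) (j := 1) (by decide) (by decide)]
      exact hdisj
    · intro i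
      fin_cases i
      · rintro _ ⟨a, rfl⟩ _ ⟨b, rfl⟩
        simp only [Matrix.toLin'_apply]
        rw [hadj, Matrix.mulVec_mulVec, he'e, Matrix.zero_mulVec, fzr]
      · rintro _ ⟨a, rfl⟩ _ ⟨b, rfl⟩
        simp only [Matrix.toLin'_apply]
        rw [hadj', Matrix.mulVec_mulVec, hee', Matrix.zero_mulVec, fzr]
    · intro h hh
      have hc' : (h : Matrix ι ι F) * e' * ((h⁻¹ : GL ι F) : Matrix ι ι F) =
          1 - (h : Matrix ι ι F) * e * ((h⁻¹ : GL ι F) : Matrix ι ι F) := by
        rw [he', mul_sub, sub_mul, mul_one, ← Units.val_mul, mul_inv_cancel, Units.val_one]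
      rcases hperm h hh with h1 | h1
      · refine ⟨1, fun i => ?_⟩
        fin_cases i
        · change (D 0).map _ = D 0
          rw [hD0, map_range_conj, h1]
        · change (D 1).map _ = D 1
          rw [hD1, map_range_conj, hc', h1]
      · refine ⟨Equiv.swap 0 1, fun i => ?_⟩
        fin_cases i
        · change (D 0).map _ = D 1
          rw [hD0, hD1, map_range_conj, h1]
        · change (D 1).map _ = D 0
          rw [hD0, hD1, map_range_conj, hc', h1, he', sub_sub_cancel]
  · -- quadratic form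
    have h2 : (2 : F) = 0 := Cfsg.Agent.Lib.Helper1.Sp.two_eq_zero_iff.2 hodd
    have hneg : ∀ x : F, -x = x := by
      intro x
      have : x + x = 0 := by rw [← two_mul, h2, zero_mul]
      linear_combination -this
    apply Cfsg.Agent.Lib.Helper1.Sp.SpCls.of_hasQuad hodd
    set Q : (ι → F) → F := fun v => f (e *ᵥ v) v with hQ
    have hpolar : QuadraticMap.polar Q = f := by
      funext u v
      simp only [QuadraticMap.polar, hQ]
      rw [Matrix.mulVec_add, hf.bilinear.add_left, hf.bilinear.add_right, hf.bilinear.add_right]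
      have h3 : f (e *ᵥ v) u = f (e' *ᵥ u) v := by
        rw [hadj, hf.skew, hneg]
      have h4 : f u v = f (e *ᵥ u) v + f (e' *ᵥ u) v := by
        rw [← hf.bilinear.add_left, hsplit]
      rw [h3, h4]; ring
    refine ⟨Q, ⟨?_, ?_, ?_⟩, ?_, ?_⟩
    · intro c v
      simp only [hQ]
      rw [Matrix.mulVec_smul, hf.bilinear.smul_left, hf.bilinear.smul_right]; ring
    · rw [hpolar]; exact hf.bilinear
    · rw [hpolar]; exact hf.nondegenerate
    · intro u v; rw [hpolar]
    · rintro _ ⟨h, hh, rfl⟩ v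
      simp only [hQ]
      have hfix : ∀ a b, f ((h : Matrix ι ι F) *ᵥ a) ((h : Matrix ι ι F) *ᵥ b) = f a b :=
        hH _ ⟨h, hh, rfl⟩
      have h3 : e *ᵥ ((h : Matrix ι ι F) *ᵥ v) = (h : Matrix ι ι F) *ᵥ
          ((((h⁻¹ : GL ι F) : Matrix ι ι F) * e * (((h⁻¹)⁻¹ : GL ι F) : Matrix ι ι F)) *ᵥ v) := by
        rw [inv_inv, Matrix.mulVec_mulVec, Matrix.mulVec_mulVec, ← mul_assoc, ← mul_assoc,
          ← Units.val_mul, mul_inv_cancel, Units.val_one, one_mul]
      rw [h3, hfix]
      rcases hperm _ (H.inv_mem hh) with h1 | h1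
      · rw [h1]
      · rw [h1]
        have h4 : f v v = f (e *ᵥ v) v + f (e' *ᵥ v) v := by
          rw [← hf.bilinear.add_left, hsplit]
        rw [hf.alternating] at h4
        have : f (e' *ᵥ v) v = -f (e *ᵥ v) v := by linear_combination -h4
        rw [this, hneg]

end Cfsg.Agent.Lib.Helper12.Sp
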