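import Cfsg.Agent.Lib.Helper90.Sp.Defs
import Cfsg.Agent.Lib.Helper2.Sp.SB
import Cfsg.Agent.Lib.Helper12.Sp.SCa

set_option autoImplicit false
set_option linter.unusedSectionVars false

/-! # Piece SD of the symplectic Aschbacher campaign -/

namespace Cfsg.Agent.Lib.Helper12.Sp

open Cfsg Cfsg.Geo Matrix Cfsg.Agent.Lib.Helper13.Asch Cfsg.Agent.Lib.Helper90.Sp
open scoped Kronecker MatrixGroups

variable {ι : Type} [Fintype ι] [DecidableEq ι] {F : Type*} [Field F]

/-- `y` is an adjoint of `x` -/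
def Adj (f : (ι → F) → (ι → F) → F) (x y : Matrix ι ι F) : Prop :=
  ∀ u v, f (x *ᵥ u) v = f u (y *ᵥ v)

lemma vmi (h : GL ι F) : (h : Matrix ι ι F) * ((h⁻¹ : GL ι F) : Matrix ι ι F) = 1 := by
  rw [← Units.val_mul, mul_inv_cancel, Units.val_one]

lemma vim (h : GL ι F) : ((h⁻¹ : GL ι F) : Matrix ι ι F) * (h : Matrix ι ι F) = 1 := by
  rw [← Units.val_mul, inv_mul_cancel, Units.val_one]

section adj

variable {f : (ι → F) → (ι → F) → F} (hf : IsSymplecticForm f)

include hf

lemma f_zero_right (u : ι → F) : f u 0 = 0 := by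
  have := hf.bilinear.smul_right 0 u 0
  simpa using this

lemma f_sub_right (u v w : ι → F) : f u (v - w) = f u v - f u w := by
  have h1 := hf.bilinear.add_right u v ((-1 : F) • w)
  rw [hf.bilinear.smul_right] at h1
  have : v - w = v + (-1 : F) • w := by rw [neg_smul, one_smul, sub_eq_add_neg]
  rw [this, h1]; ring

lemma Adj.unique {x y y' : Matrix ι ι F} (h : Adj f x y) (h' : Adj f x y') : y = y' := by
  have key : ∀ v, y *ᵥ v = y' *ᵥ v := by
    intro v
    by_contra hne
    have hne' : y *ᵥ v - y' *ᵥ v ≠ 0 := sub_ne_zero.2 hne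
    obtain ⟨u, hu⟩ := (hf.nondegenerate _ hne').1
    apply hu
    rw [f_sub_right hf, ← h u v, ← h' u v, sub_self]
  ext i j
  have := congrFun (key (Pi.single j 1)) i
  simpa using this

lemma Adj.symm {x y : Matrix ι ι F} (h : Adj f x y) : Adj f y x := by
  intro u v
  rw [hf.skew, ← h v u, hf.skew, neg_neg]

omit hf in
lemma Adj.mul {x y x' y' : Matrix ι ι F} (h : Adj f x y) (h' : Adj f x' y') :
    Adj f (x * x') (y' * y) := by
  intro u v
  rw [← Matrix.mulVec_mulVec, h, h', Matrix.mulVec_mulVec]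

lemma Adj.add {x y x' y' : Matrix ι ι F} (h : Adj f x y) (h' : Adj f x' y') :
    Adj f (x + x') (y + y') := by
  intro u v
  rw [Matrix.add_mulVec, Matrix.add_mulVec, hf.bilinear.add_left, hf.bilinear.add_right, h, h']

lemma Adj.algMap (c : F) :
    Adj f (algebraMap F (Matrix ι ι F) c) (algebraMap F (Matrix ι ι F) c) := by
  intro u v
  have : ∀ w : ι → F, algebraMap F (Matrix ι ι F) c *ᵥ w = c • w := by
    intro w
    rw [Algebra.algebraMap_eq_smul_one, Matrix.smul_mulVec, Matrix.one_mulVec]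
  rw [this, this, hf.bilinear.smul_left, hf.bilinear.smul_right]

omit hf in
lemma Adj.conj {H : Subgroup (GL ι F)} (hH : FixesForm (matrixSet H) f) {g : GL ι F} (hg : g ∈ H)
    {x y : Matrix ι ι F} (h : Adj f x y) :
    Adj f ((g : Matrix ι ι F) * x * ((g⁻¹ : GL ι F) : Matrix ι ι F))
      ((g : Matrix ι ι F) * y * ((g⁻¹ : GL ι F) : Matrix ι ι F)) := by
  intro u v
  have hg1 : ∀ a b, f ((g : Matrix ι ι F) *ᵥ a) ((g : Matrix ι ι F) *ᵥ b) = f a b :=
    hH _ ⟨g, hg, rfl⟩
  have e1 : ∀ w : ι → F, (g : Matrix ι ι F) *ᵥ (((g⁻¹ : GL ι F) : Matrix ι ι F) *ᵥ w) = w := by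
    intro w
    rw [Matrix.mulVec_mulVec, vmi, Matrix.one_mulVec]
  calc f (((g : Matrix ι ι F) * x * ((g⁻¹ : GL ι F) : Matrix ι ι F)) *ᵥ u) v
      = f ((g : Matrix ι ι F) *ᵥ (x *ᵥ (((g⁻¹ : GL ι F) : Matrix ι ι F) *ᵥ u)))
          ((g : Matrix ι ι F) *ᵥ (((g⁻¹ : GL ι F) : Matrix ι ι F) *ᵥ v)) := by
        rw [e1 v, Matrix.mulVec_mulVec, Matrix.mulVec_mulVec]
    _ = f (((g⁻¹ : GL ι F) : Matrix ι ι F) *ᵥ u) (y *ᵥ (((g⁻¹ : GL ι F) : Matrix ι ι F) *ᵥ v)) := by
        rw [hg1, h]
    _ = f ((g : Matrix ι ι F) *ᵥ (((g⁻¹ : GL ι F) : Matrix ι ι F) *ᵥ u))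
          ((g : Matrix ι ι F) *ᵥ (y *ᵥ (((g⁻¹ : GL ι F) : Matrix ι ι F) *ᵥ v))) := by rw [hg1]
    _ = f u (((g : Matrix ι ι F) * y * ((g⁻¹ : GL ι F) : Matrix ι ι F)) *ᵥ v) := by
        rw [e1 u, Matrix.mulVec_mulVec, Matrix.mulVec_mulVec]

end adj

/-- conjugates of primitive idempotents -/
lemma primIdem_conj {Z : Subalgebra F (Matrix ι ι F)} {g : GL ι F}
    (hg : g ∈ subalgebraNormalizer Z) {x : Matrix ι ι F} (hx : IsPrimIdem Z x) :
    IsPrimIdem Z ((g : Matrix ι ι F) * x * ((g⁻¹ : GL ι F) : Matrix ι ι F)) := by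
  obtain ⟨h1, h2, h3, h4⟩ := hx
  set G := (g : Matrix ι ι F)
  set G' := ((g⁻¹ : GL ι F) : Matrix ι ι F)
  have a1 : G * G' = 1 := vmi g
  have a2 : G' * G = 1 := vim g
  refine ⟨(hg x).1 h1, ?_, ?_, ?_⟩
  · calc G * x * G' * (G * x * G') = G * x * (G' * G) * x * G' := by simp only [mul_assoc]
      _ = G * (x * x) * G' := by rw [a2, mul_one]; simp only [mul_assoc]
      _ = G * x * G' := by rw [h2]
  · intro h0
    apply h3
    calc x = (G' * G) * x * (G' * G) := by rw [a2, one_mul, mul_one]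
      _ = G' * (G * x * G') * G := by simp only [mul_assoc]
      _ = 0 := by rw [h0]; simp
  · intro y hy hyy hxy
    have e0 : G * (G' * y * G) * G' = y := by
      calc G * (G' * y * G) * G' = (G * G') * y * (G * G') := by simp only [mul_assoc]
        _ = y := by rw [a1, one_mul, mul_one]
    have hy' : G' * y * G ∈ Z := by
      rw [hg (G' * y * G), e0]; exact hy
    have hyy' : G' * y * G * (G' * y * G) = G' * y * G := by
      calc G' * y * G * (G' * y * G) = G' * y * (G * G') * y * G := by simp only [mul_assoc]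
        _ = G' * (y * y) * G := by rw [a1, mul_one]; simp only [mul_assoc]
        _ = G' * y * G := by rw [hyy]
    have hxy' : x * (G' * y * G) = G' * y * G := by
      calc x * (G' * y * G) = (G' * G) * x * (G' * y * G) := by rw [a2, one_mul]
        _ = G' * ((G * x * G') * y) * G := by simp only [mul_assoc]
        _ = G' * y * G := by rw [hxy]
    rcases h4 _ hy' hyy' hxy' with h | h
    · left
      rw [← e0, h]; simp
    · right
      rw [← e0, h]

/-- the self-adjoint part of a commutative subalgebra -/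
def saPart {f : (ι → F) → (ι → F) → F} (hf : IsSymplecticForm f) (Z : Subalgebra F (Matrix ι ι F))
    (hcomm : ∀ x ∈ Z, ∀ y ∈ Z, x * y = y * x) : Subalgebra F (Matrix ι ι F) where
  carrier := {z | z ∈ Z ∧ Adj f z z}
  mul_mem' := by
    rintro a b ⟨ha, ha'⟩ ⟨hb, hb'⟩
    refine ⟨Z.mul_mem ha hb, ?_⟩
    have := ha'.mul hb'
    rwa [hcomm b hb a ha] at this
  add_mem' := by
    rintro a b ⟨ha, ha'⟩ ⟨hb, hb'⟩
    exact ⟨Z.add_mem ha hb, ha'.add hf hb'⟩
  algebraMap_mem' := fun c => ⟨Z.algebraMap_mem c, Adj.algMap hf c⟩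

lemma adj_zero {f : (ι → F) → (ι → F) → F} (hf : IsSymplecticForm f) : Adj f 0 0 := by
  have := Adj.algMap hf (0 : F)
  simpa using this

lemma adj_one {f : (ι → F) → (ι → F) → F} : Adj f 1 1 := by
  intro u v
  rw [Matrix.one_mulVec, Matrix.one_mulVec]

/-- SD -/
theorem sp_comm_dichotomy [Fintype F] [Nonempty ι] {f : (ι → F) → (ι → F) → F}
    (hf : IsSymplecticForm f) {H : Subgroup (GL ι F)} (hH : FixesForm (matrixSet H) f)
    (hirr : ActsIrreducibly (matrixSet H)) (Z : Subalgebra F (Matrix ι ι F))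
    (hZ : H ≤ subalgebraNormalizer Z) (hcomm : ∀ x ∈ Z, ∀ y ∈ Z, x * y = y * x)
    (hadj : IsAdjointClosedFor f Z) :
    SpCls f H ∨ (∀ x ∈ Z, x ≠ 0 → ∃ y ∈ Z, x * y = 1) := by
  classical
  set Z0 := saPart hf Z hcomm with hZ0def
  have hZ0 : H ≤ subalgebraNormalizer Z0 := by
    intro h hh k
    constructor
    · rintro ⟨hk, hk'⟩
      exact ⟨(hZ hh k).1 hk, hk'.conj hH hh⟩
    · rintro ⟨hk, hk'⟩
      refine ⟨(hZ hh k).2 hk, ?_⟩
      have h1 := hk'.conj hH (H.inv_mem hh)
      have h2 : ((h⁻¹ : GL ι F) : Matrix ι ι F) *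
          ((h : Matrix ι ι F) * k * ((h⁻¹ : GL ι F) : Matrix ι ι F)) *
          (((h⁻¹)⁻¹ : GL ι F) : Matrix ι ι F) = k := by
        rw [inv_inv]
        calc ((h⁻¹ : GL ι F) : Matrix ι ι F) *
          ((h : Matrix ι ι F) * k * ((h⁻¹ : GL ι F) : Matrix ι ι F)) * (h : Matrix ι ι F)
            = (((h⁻¹ : GL ι F) : Matrix ι ι F) * (h : Matrix ι ι F)) * k *
              (((h⁻¹ : GL ι F) : Matrix ι ι F) * (h : Matrix ι ι F)) := by simp only [mul_assoc]
          _ = k := by rw [vim, one_mul, mul_one]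
      rwa [h2] at h1
  have hcomm0 : ∀ x ∈ Z0, ∀ y ∈ Z0, x * y = y * x := fun x hx y hy => hcomm x hx.1 y hy.1
  rcases Cfsg.Agent.Lib.Helper2.Sp.exists_idempotents H hirr Z0 hZ0 hcomm0 with
    hfield0 | ⟨t, e, ht, hinj, hprim, hex, horth, hsum⟩
  swap
  · left
    obtain ⟨k, D, hD, hle, -⟩ := sp_of_selfadjoint_idempotents hf hH hirr ht e hinj
      (fun i => (hprim i).2.1) (fun i => (hprim i).2.2.1) horth hsum
      (fun h hh i => hex _ (primIdem_conj (hZ0 hh) (hprim i))) (fun i => (hprim i).1.2)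
    right; right; left
    exact ⟨t, k, D, hD, hle⟩
  have hid0 : ∀ x ∈ Z0, x * x = x → x = 0 ∨ x = 1 := by
    intro x hx hxx
    by_cases h0 : x = 0
    · left; exact h0
    · right
      obtain ⟨y, -, hy⟩ := hfield0 x hx h0
      calc x = x * (x * y) := by rw [hy, mul_one]
        _ = (x * x) * y := by rw [mul_assoc]
        _ = 1 := by rw [hxx, hy]
  rcases Cfsg.Agent.Lib.Helper2.Sp.exists_idempotents H hirr Z hZ hcomm with
    hfield | ⟨t, e, ht, hinj, hprim, hex, horth, hsum⟩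
  · right; exact hfield
  left
  set e0 := e ⟨0, by omega⟩ with he0
  have hp0 : IsPrimIdem Z e0 := hprim _
  obtain ⟨es, hesZ, hes'⟩ := hadj e0 hp0.1
  have hes : Adj f e0 es := hes'
  have hesid : es * es = es := by
    have := hes.mul hes
    rw [hp0.2.1] at this
    exact this.unique hf hes
  have hesprim : IsPrimIdem Z es := by
    refine ⟨hesZ, hesid, ?_, ?_⟩
    · intro h0
      rw [h0] at hes
      exact hp0.2.2.1 ((hes.symm hf).unique hf (adj_zero hf))
    · intro y hy hyy hxy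
      obtain ⟨ys, hysZ, hys'⟩ := hadj y hy
      have hys : Adj f y ys := hys'
      have h1 : ys * ys = ys := by
        have := hys.mul hys
        rw [hyy] at this
        exact this.unique hf hys
      have h2 : e0 * ys = ys := by
        have := (hes.symm hf).mul hys
        rw [hxy] at this
        rw [hcomm e0 hp0.1 ys hysZ]
        exact this.unique hf hys
      rcases hp0.2.2.2 ys hysZ h1 h2 with h | h
      · left
        rw [h] at hys
        exact (hys.symm hf).unique hf (adj_zero hf)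
      · right
        rw [h] at hys
        exact (hys.symm hf).unique hf hes
  -- `es ≠ e0`
  have hne : es ≠ e0 := by
    intro h
    rw [h] at hes
    have hmem : e0 ∈ Z0 := ⟨hp0.1, hes⟩
    rcases hid0 e0 hmem hp0.2.1 with h0 | h1
    · exact hp0.2.2.1 h0
    · have h01 : (⟨0, by omega⟩ : Fin t) ≠ ⟨1, by omega⟩ := by
        intro h; simpa using congrArg Fin.val h
      have := horth _ _ h01
      rw [← he0, h1, one_mul] at this
      exact (hprim _).2.2.1 this
  obtain ⟨j, hj⟩ := hex es hesprim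
  have hprod : e0 * es = 0 := by
    rw [hj]
    apply horth
    intro h
    apply hne
    rw [hj, ← h]
  have hprod' : es * e0 = 0 := by rw [hcomm es hesZ e0 hp0.1, hprod]
  have hsum1 : e0 + es = 1 := by
    have hmem : e0 + es ∈ Z0 := by
      refine ⟨Z.add_mem hp0.1 hesZ, ?_⟩
      have := hes.add hf (hes.symm hf)
      rwa [add_comm es e0] at this
    have hidem : (e0 + es) * (e0 + es) = e0 + es := by
      rw [add_mul, mul_add, mul_add, hp0.2.1, hesid, hprod, hprod', add_zero, zero_add]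
    rcases hid0 _ hmem hidem with h0 | h1
    · exfalso
      apply hp0.2.2.1
      calc e0 = e0 * (e0 + es) := by rw [mul_add, hp0.2.1, hprod, add_zero]
        _ = 0 := by rw [h0, mul_zero]
    · exact h1
  have hes1 : es = 1 - e0 := by rw [← hsum1]; abel
  have hall : ∀ x, IsPrimIdem Z x → x = e0 ∨ x = es := by
    intro x hx
    obtain ⟨i, hi⟩ := hex x hx
    by_contra hcon
    push Not at hcon
    apply hx.2.2.1
    have h1 : x * e0 = 0 := by
      rw [hi]
      apply horth
      intro h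
      apply hcon.1
      rw [hi, h]
    have h2 : x * es = 0 := by
      rw [hi, hj]
      apply horth
      intro h
      apply hcon.2
      rw [hi, hj, h]
    calc x = x * (e0 + es) := by rw [hsum1, mul_one]
      _ = 0 := by rw [mul_add, h1, h2, add_zero]
  apply sp_of_isotropic_idempotent hf hH e0 hp0.2.1
  · rw [← hes1]; exact hes
  · intro h hh
    rw [← hes1]
    exact hall _ (primIdem_conj (hZ hh) hp0)

end Cfsg.Agent.Lib.Helper12.Sp
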